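import Cfsg.Agent.H721.RC.RowsFinal
import Cfsg.Agent.H551.E5.Case3
import Cfsg.Agent.H551.E5.Case4

/-!
# S3510, even orthogonal groups: the engine `NoCovEven`, unconditional (helper106; boxes of helper721's team)
-/

set_option autoImplicit false
open Cfsg

namespace Cfsg.Agent.H106.RC.EvenFin

open Cfsg.Agent.H106.RC Cfsg.Agent.H721.RC

theorem boxE5 : BoxE5 :=
  boxE5_of (fun S h => H551.E5.case3 S h) (fun S h => H551.E5.case4 S h)

theorem noCovEven : NoCovEven := noCovEven_of boxE5

theorem row_minus : Row (fun S _ => IsPOmegaMinus S) := row_minus_of noCovEven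

end Cfsg.Agent.H106.RC.EvenFin
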